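import Mathlib
import Cfsg.Agent.Lib.F24T.CocMain
import Cfsg.Agent.Lib.F24T.Frame
import Cfsg.Agent.Lib.Thompson.Basic

/-!
# The Thompson subgroup of an arbitrary Sylow 2-subgroup of a group of large Fischer type
-/

set_option autoImplicit false
set_option maxRecDepth 100000

namespace H94.B1

open Subgroup H12.F24 H54 H95 H12.F24.PreFrame Cfsg
open scoped Pointwise

variable {G : Type*} [Group G]

/-- a conjugate of the cocode subgroup -/
structure Mini (z : G) (B : Subgroup G) where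
  γ : Finset GolayPt → G
  θ : normalizer (B : Set G) →* Equiv.Perm GolayPt
  ea : IsElementaryAbelian 2 B
  card : Nat.card B = 2 ^ 11
  θ_range : θ.range = M24
  θ_ker : ∀ m, θ m = 1 ↔ (m : G) ∈ B
  θ_conj : ∀ (m : normalizer (B : Set G)) S, Even S.card → m * γ S * (m : G)⁻¹ = γ (θ m • S)
  inj : ∀ S T, S.card = 2 → T.card = 2 → γ S = γ T → S = T
  cls : ∀ y, (y ∈ B ∧ y ≠ 1 ∧ ¬ IsConj z y) ↔ ∃ i j, i ≠ j ∧ y = γ {i, j}
  zc : ∃ a ∈ B, a ≠ 1 ∧ IsConj z a
  fusion : ∀ a ∈ B, ∀ b ∈ B, IsConj a b → ∃ m ∈ normalizer (B : Set G), m * a * m⁻¹ = b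

variable {z : G}

theorem ea_A (F : Frame z) : IsElementaryAbelian 2 (A F) :=
  H24.EA.iff_mem.2 ⟨fun _ ha _ hb => A_comm ha hb, fun _ ha => (sq _).trans (A_sq ha)⟩

theorem exists_mini [Finite G] (F : Frame z) : Nonempty (Mini z (A F)) := by
  obtain ⟨h, hh⟩ := exists_hat F
  exact ⟨{
    γ := γ F h
    θ := hh.θ
    ea := ea_A F
    card := card_A
    θ_range := hh.θ_range
    θ_ker := hh.θ_ker
    θ_conj := hh.θ_conj
    inj := fun S T a b => hh.γ_inj S T (by omega) b (a ▸ even_two)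
    cls := fun y => ⟨fun ⟨a, b⟩ => (hh.cls_A a).1 b, fun b => by
      have a : y ∈ A F := by obtain ⟨i, j, -, rfl⟩ := b; exact hh.γ_mem _
      exact ⟨a, (hh.cls_A a).2 b⟩⟩
    zc := ⟨z, z_mem_A, F.z1, IsConj.refl z⟩
    fusion := fun _ ha _ hb => fusion' ha hb }⟩

theorem mem_map_conj' {B : Subgroup G} {g y : G} : y ∈ B.map (MulAut.conj g).toMonoidHom ↔ g⁻¹ * y * g ∈ B :=
  ⟨by rintro ⟨b, hb, rfl⟩; simpa [mul_assoc] using hb, fun h => ⟨_, h, by simp [mul_assoc]⟩⟩

theorem mem_norm_conj {B : Subgroup G} {g m : G} :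
    m ∈ normalizer (B.map (MulAut.conj g).toMonoidHom : Set G) ↔ g⁻¹ * m * g ∈ normalizer (B : Set G) := by
  rw [← map_equiv_normalizer_eq, mem_map_conj']

/-- transport by conjugation -/
noncomputable def Mini.conj {B : Subgroup G} (m : Mini z B) (g : G) :
    Mini z (B.map (MulAut.conj g).toMonoidHom) where
  γ S := g * m.γ S * g⁻¹
  θ := m.θ.comp (MonoidHom.mk' (fun n => ⟨g⁻¹ * n * g, mem_norm_conj.1 n.2⟩) fun a b => Subtype.ext (by
    simp only [coe_mul]; group))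
  ea := H24.EA.map m.ea _
  card := (card_map_conj B g).trans m.card
  θ_range := by
    rw [← m.θ_range]
    ext p
    exact ⟨fun ⟨_, e⟩ => ⟨_, e⟩, fun ⟨n, e⟩ => ⟨⟨g * n * g⁻¹, mem_norm_conj.2 (by simpa [mul_assoc] using n.2)⟩,
      (congrArg m.θ (Subtype.ext (show g⁻¹ * (g * n * g⁻¹) * g = n by group))).trans e⟩⟩
  θ_ker n := (m.θ_ker _).trans mem_map_conj'.symm
  θ_conj n S hS := by
    rw [MonoidHom.comp_apply, ← m.θ_conj _ S hS]
    change _ = g * (g⁻¹ * n * g * _ * (g⁻¹ * n * g)⁻¹) * g⁻¹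
    group
  inj S T a b e := m.inj S T a b (by simpa using e)
  cls y := by
    rw [mem_map_conj', ← nc_conj g⁻¹ y, inv_inv, m.cls]
    exact exists_congr fun i => exists_congr fun j => and_congr_right' ⟨fun e => by rw [← e]; group,
      fun e => by rw [e]; group⟩
  zc := by
    obtain ⟨a, ha, h1, c⟩ := m.zc
    exact ⟨g * a * g⁻¹, ⟨a, ha, rfl⟩, by simpa using h1, c.trans (isConj_iff.2 ⟨g, rfl⟩)⟩
  fusion := by
    rintro _ ⟨a, ha, rfl⟩ _ ⟨b, hb, rfl⟩ c
    obtain ⟨n, hn, rfl⟩ := m.fusion a ha b hb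
      (((isConj_iff.2 ⟨g, rfl⟩).trans c).trans (isConj_iff.2 ⟨g, rfl⟩).symm)
    exact ⟨g * n * g⁻¹, mem_norm_conj.2 (by simpa [mul_assoc] using hn), by simp [mul_assoc]⟩

theorem maxEA_eq [Finite G] (F : Frame z) (g : G) :
    H24.maxEA 2 ((pre F Tst).map (MulAut.conj g).toMonoidHom) = {(A F).map (MulAut.conj g).toMonoidHom} := by
  rw [← H24.image_maxEA (MulAut.conj g).injective, ← Set.image_singleton]
  congr 1
  have key : ∀ B ∈ H24.maxEA 2 (pre F Tst), B = A F := fun B hB =>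
    J_T hB.1 (fun b hb => (sq b).symm.trans (hB.2.1.2 b hb)) (card_A (F := F) ▸ hB.2.2 _ A_le_T (ea_A F))
  obtain ⟨B, hB⟩ := H24.maxEA_nonempty 2 (pre F Tst)
  exact Set.eq_singleton_iff_unique_mem.2 ⟨key B hB ▸ hB, key⟩

theorem mini_J [Finite G] (F : Frame z) (T : Sylow 2 G) :
    Nonempty (Mini z (thompsonSubgroupOf 2 (T : Subgroup G))) := by
  obtain ⟨S, hS⟩ := exists_sylow_eq (card_T (F := F)) (not_dvd_card F)
  obtain ⟨g, rfl⟩ := MulAction.exists_smul_eq G S T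
  have : ((g • S : Sylow 2 G) : Subgroup G) = (pre F Tst).map (MulAut.conj g).toMonoidHom := hS ▸ rfl
  rw [this, H24.thompsonSubgroupOf_eq_sSup, maxEA_eq, sSup_singleton]
  exact (exists_mini F).map fun m => m.conj g

namespace Mini

variable {B : Subgroup G} (m : Mini z B)
include m

theorem quot : Nonempty (normalizer (B : Set G) ⧸ B.subgroupOf (normalizer (B : Set G)) ≃* M24) :=
  ⟨(QuotientGroup.quotientMulEquivOfEq (Subgroup.ext fun n => (m.θ_ker n).symm)).trans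
    ((QuotientGroup.quotientKerEquivRange m.θ).trans (MulEquiv.subgroupCongr m.θ_range))⟩

theorem exists_pair {i j k l : GolayPt} (h : i ≠ j) (h' : k ≠ l) :
    ∃ n : normalizer (B : Set G), m.θ n • ({i, j} : Finset GolayPt) = {k, l} := by
  obtain ⟨p, hp, e1, e2⟩ := H15.M24_trans2 h h'
  rw [← m.θ_range] at hp
  obtain ⟨n, rfl⟩ := hp
  exact ⟨n, by rw [Finset.smul_finset_insert, Finset.smul_finset_singleton, ← e1, ← e2]; rfl⟩

theorem orbits {a b : G} (ha : a ∈ B) (hb : b ∈ B) (a1 : a ≠ 1) (b1 : b ≠ 1) (h : IsConj z a ↔ IsConj z b) :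
    ∃ n ∈ normalizer (B : Set G), n * a * n⁻¹ = b := by
  by_cases c : IsConj z a
  · exact m.fusion a ha b hb (c.symm.trans (h.1 c))
  · obtain ⟨i, j, hij, rfl⟩ := (m.cls a).1 ⟨ha, a1, c⟩
    obtain ⟨k, l, hkl, rfl⟩ := (m.cls b).1 ⟨hb, b1, fun d => c (h.2 d)⟩
    obtain ⟨n, e⟩ := m.exists_pair hij hkl
    exact ⟨n, n.2, by rw [m.θ_conj n _ (Finset.card_pair hij ▸ even_two), e]⟩

theorem exists_nc : ∃ a ∈ B, a ≠ 1 ∧ ¬ IsConj z a := ⟨_, (m.cls _).2 ⟨none, some 0, by decide, rfl⟩⟩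

theorem cent {t : G} (ht : t ∈ B) (t1 : t ≠ 1) (hn : ¬ IsConj z t) :
    ∃ _ : (B.subgroupOf (normalizer (B : Set G) ⊓ centralizer ({t} : Set G))).Normal,
      Nonempty (↥(normalizer (B : Set G) ⊓ centralizer ({t} : Set G)) ⧸
        B.subgroupOf (normalizer (B : Set G) ⊓ centralizer ({t} : Set G)) ≃*
        ↥(M24 ⊓ MulAction.stabilizer (Equiv.Perm GolayPt) ({none, some 0} : Set GolayPt))) := by
  obtain ⟨i, j, hij, rfl⟩ := (m.cls t).1 ⟨ht, t1, hn⟩
  obtain ⟨n, e⟩ := m.exists_pair hij (k := none) (l := some 0) (by decide)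
  have c2 := Finset.card_pair hij
  let ψ : ↥(normalizer (B : Set G) ⊓ centralizer ({m.γ {i, j}} : Set G)) →* Equiv.Perm GolayPt :=
    (MulAut.conj (m.θ n)).toMonoidHom.comp (m.θ.comp (inclusion inf_le_left))
  have hk : B.subgroupOf _ = ψ.ker := Subgroup.ext fun c =>
    (m.θ_ker (inclusion inf_le_left c)).symm.trans (MulAut.conj (m.θ n)).map_eq_one_iff.symm
  have st : ∀ c : normalizer (B : Set G), (c : G) ∈ centralizer ({m.γ {i, j}} : Set G) ↔ m.θ n * m.θ c * (m.θ n)⁻¹ ∈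
      MulAction.stabilizer (Equiv.Perm GolayPt) ({none, some 0} : Set GolayPt) := fun c => by
    rw [MulAction.mem_stabilizer_iff, ← Finset.coe_pair, ← Finset.coe_smul_finset, Finset.coe_inj, ← e, mul_smul,
      inv_smul_smul, mul_smul, smul_left_cancel_iff, mem_cent_iff, ← mul_inv_eq_iff_eq_mul,
      m.θ_conj c _ (c2 ▸ even_two)]
    exact ⟨m.inj _ _ (by rw [Finset.card_smul_finset, c2]) c2, congrArg _⟩
  have hr : ψ.range = M24 ⊓ MulAction.stabilizer (Equiv.Perm GolayPt) ({none, some 0} : Set GolayPt) := by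
    rw [← m.θ_range]
    ext p
    constructor
    · rintro ⟨c, rfl⟩
      exact ⟨⟨n * inclusion inf_le_left c * n⁻¹, by simp [ψ]⟩, (st (inclusion inf_le_left c)).1 c.2.2⟩
    · rintro ⟨⟨c, rfl⟩, hc⟩
      exact ⟨⟨(n⁻¹ * c * n : normalizer (B : Set G)), (n⁻¹ * c * n).2, (st _).2 (by simpa [mul_assoc] using hc)⟩,
        show m.θ n * m.θ (n⁻¹ * c * n) * (m.θ n)⁻¹ = m.θ c by simp [mul_assoc]⟩
  have : (B.subgroupOf (normalizer (B : Set G) ⊓ centralizer ({m.γ {i, j}} : Set G))).Normal := hk ▸ inferInstance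
  exact ⟨this, ⟨(QuotientGroup.quotientMulEquivOfEq hk).trans
    ((QuotientGroup.quotientKerEquivRange ψ).trans (MulEquiv.subgroupCongr hr))⟩⟩

end Mini

theorem card_A_inf_Q (F : Frame z) : Nat.card (A F ⊓ F.Q : Subgroup G) = 2 ^ 7 := by
  choose l hl using exists_XL F
  have := ncard_A (P := fun y => y ∈ F.Q) (f := fun j => Nat.ble j 127) (fun k _ => hl k) fun j hj => by
    have h1 := (cd_spec j).2.2
    have h2 := el_lift (fun k _ => hl k) (c := cd j) (by omega)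
    rw [Nat.ble_eq, ← F.lift_one_iff, ← a2_zero]
    exact ⟨fun h => by have := a2_inj (by omega) (by norm_num) (h2.unique h); omega,
      fun h => by rwa [h1, show j / 128 = 0 by omega] at h2⟩
  rw [(by decide +kernel : cntLt (fun j => Nat.ble j 127) 2048 = 2 ^ 7)] at this
  rw [← this, ← Nat.card_coe_set_eq]
  rfl

theorem sylow_cent [Finite G] (F : Frame z) (T : Sylow 2 (centralizer ({z} : Set G))) :
    ∃ B : Subgroup (T : Subgroup (centralizer ({z} : Set G))),
      maxElementaryAbelianSubgroups 2 (T : Subgroup (centralizer ({z} : Set G))) = {B} ∧ Nat.card B = 2 ^ 11 ∧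
      Nat.card (((B.map (T : Subgroup (centralizer ({z} : Set G))).subtype).map
        (centralizer ({z} : Set G)).subtype) ⊓ F.Q : Subgroup G) = 2 ^ 7 := by
  obtain ⟨S, hS⟩ := exists_sylow_eq (E := (pre F Tst).subgroupOf (centralizer ({z} : Set G)))
    ((H24.card_subgroupOf_of_le (pre_le_cent _)).trans card_T)
    fun h => not_dvd_card F (h.trans (card_subgroup_dvd_card _))
  obtain ⟨g, hg⟩ := MulAction.exists_smul_eq (centralizer ({z} : Set G)) S T
  have e1 : (T : Subgroup (centralizer ({z} : Set G))).map (centralizer ({z} : Set G)).subtype =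
      (pre F Tst).map (MulAut.conj (g : G)).toMonoidHom := by
    rw [← hg, ← map_subgroupOf_eq_of_le (pre_le_cent (F := F) Tst), ← hS]
    rw [map_map]
    exact map_map _ _ _
  have hf : Function.Injective ((centralizer ({z} : Set G)).subtype.comp
      (T : Subgroup (centralizer ({z} : Set G))).subtype) := fun _ _ h => Subtype.ext (Subtype.ext h)
  have e2 := H24.image_maxEA (p := 2) hf ⊤
  rw [← map_map, H24.map_top_subtype, e1, maxEA_eq, H24.maxEA_top] at e2
  obtain ⟨B, hB, e3⟩ := e2.ge rfl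
  dsimp only at e3
  refine ⟨B, Set.eq_singleton_iff_unique_mem.2 ⟨hB, fun C hC => map_injective hf ((e2.le ⟨C, hC, rfl⟩).trans e3.symm)⟩,
    ?_, ?_⟩
  · rw [← card_map_of_injective hf, e3, card_map_conj, card_A]
  · have e4 : F.Q.map (MulAut.conj (g : G)).toMonoidHom = F.Q :=
      mem_normalizer_iff_map_conj_eq.1 (F.L3.norm g (mem_cent_iff.1 g.2))
    rw [map_map, e3, ← e4, ← map_inf _ _ (MulAut.conj (g : G)).toMonoidHom (MulAut.conj (g : G)).injective,
      card_map_conj, card_A_inf_Q]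

end H94.B1
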