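import Mathlib
import Cfsg.Agent.Lib.F24T.Bar
import Cfsg.Agent.Lib.Refl3.Ext
import Cfsg.Agent.Lib.Fi22I.Inv
import Cfsg.Agent.Lib.Comp.FStar

/-!
# The centraliser of the non-central involution (helper48)
-/

set_option autoImplicit false

namespace H48.FT

open Subgroup Cfsg H94 H56
open scoped commutatorElement

variable {G : Type*} [Group G] {G' : Type*} [Group G']

theorem equiv_of_ker_eq {A B : Type*} [Group A] [Group B] {f : G →* A} {g : G →* B} (hf : Function.Surjective f)
    (hg : Function.Surjective g) (e : f.ker = g.ker) : Nonempty (A ≃* B) :=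
  ⟨((QuotientGroup.quotientKerEquivOfSurjective f hf).symm.trans (QuotientGroup.quotientMulEquivOfEq e)).trans
    (QuotientGroup.quotientKerEquivOfSurjective g hg)⟩

theorem fStar_eq_of_qs [Finite G] {K : Subgroup G} [hn : K.Normal] (hq : IsQuasisimple K)
    (hc : centralizer (K : Set G) ≤ K) : generalizedFittingSubgroup G = K := by
  have c : IsComponent K := ⟨hn.isSubnormal, hq⟩
  exact le_antisymm (sup_le (H23.layer_le_of_centralizer_le hn.isSubnormal hc) (H23.fitting_le_centralizer_layer.trans
    ((centralizer_le (H23.IsComponent.le_layer c)).trans hc))) (H23.IsComponent.le_fStar c)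

/-- the structure of the centraliser of `t` -/
def CentOK (t : G) : Prop :=
  IsQuasisimple (generalizedFittingSubgroup (centralizer ({t} : Set G))) ∧
    (generalizedFittingSubgroup (centralizer ({t} : Set G))).index = 2 ∧
    (∃ htc : t ∈ centralizer ({t} : Set G), (⟨t, htc⟩ : centralizer ({t} : Set G)) ∈
      generalizedFittingSubgroup (centralizer ({t} : Set G))) ∧
    ∀ _ : ((zpowers t).subgroupOf (centralizer ({t} : Set G))).Normal,
      Nonempty (centralizer ({t} : Set G) ⧸ (zpowers t).subgroupOf (centralizer ({t} : Set G)) ≃* MulAut Spor.Fi22)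

theorem CentOK.map {t : G} (h : CentOK t) (e : G ≃* G') : CentOK (e t) := by
  obtain ⟨h1, h2, ⟨_, h3⟩, h4⟩ := h
  have hm : (centralizer ({t} : Set G)).map (e : G →* G') = centralizer {e t} := by
    ext x
    obtain ⟨x, rfl⟩ := e.surjective x
    rw [mem_centralizer_singleton_iff, ← map_mul, ← map_mul, e.injective.eq_iff, ← mem_centralizer_singleton_iff]
    exact mem_map_iff_mem (f := (e : G →* G')) e.injective
  let i := (e.subgroupMap (centralizer {t})).trans (MulEquiv.subgroupCongr hm)
  rw [CentOK, ← H23.map_fStar_equiv i]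
  refine ⟨(H23.isQuasisimple_map_iff i.injective _).2 h1, (index_map_equiv _ i).trans h2,
    ⟨mem_centralizer_singleton_iff.2 rfl, mem_map_of_mem _ h3⟩, fun _ => ?_⟩
  have := normal_zp t
  obtain ⟨j⟩ := h4 this
  refine ⟨(QuotientGroup.congr _ _ i ?_).symm.trans j⟩
  ext x
  obtain ⟨x, rfl⟩ := i.surjective x
  refine (mem_map_iff_mem (f := i.toMonoidHom) i.injective).trans ?_
  rw [mem_subgroupOf, mem_subgroupOf, ← show _ = zpowers (e t) from MonoidHom.map_zpowers (e : G →* G') t]
  exact (mem_map_iff_mem (f := (e : G →* G')) e.injective).symm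

namespace Bar

variable {t a : G} {K : Subgroup G} {f : K →* Spor.Fi22} (h : Bar t a K f)
include h

theorem perfect : ⁅K, K⁆ = K := by
  refine le_antisymm (commutator_le.2 fun x hx y hy => mul_mem (mul_mem (mul_mem hx hy) (inv_mem hx)) (inv_mem hy))
    (h.closure_C.ge.trans ((closure_le _).2 ?_))
  rintro _ ⟨k, hk, rfl⟩
  refine (mem_normalizer_iff.1 (normalizer_commutator_ge_left K K hk) a).1 (commutator_mono h.L_le h.L_le ?_)
  rw [H23.IsQuasisimple.commutator_self h.qs]
  exact mem_cent2.2 ⟨h.comm, Commute.refl a⟩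

theorem quasisimple : IsQuasisimple K := by
  have := H18.Fi22.simple
  refine H23.IsQuasisimple.of_ker_le_center h.surj (fun x hx => mem_center_iff.2 fun g => Subtype.ext ?_)
    (isPerfect_iff.2 h.perfect) (H23.isQuasisimple_of_isSimpleGroup fun c => H18.Fi22.not_comm (c.is_comm.comm _ _))
  rcases (h.ker x).1 hx with e | e <;> rw [Subgroup.coe_mul, Subgroup.coe_mul, e]
  · rw [mul_one, one_mul]
  · exact (sys_ct h.toSys g.2).symm

theorem centOK [Finite G] : CentOK t := by
  have s := h.toSys
  let T := centralizer ({t} : Set G)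
  have hi : (K.subgroupOf T).index = 2 := s.index
  have hn := normal_of_index_eq_two hi
  have hq := (H23.isQuasisimple_subgroupOf_iff s.K_le).2 h.quasisimple
  have aT : a ∈ T := s.K_le (sys_a s)
  have hc : centralizer (K.subgroupOf T : Set T) ≤ K.subgroupOf T := fun g hg => s.L_le (mem_cent2.2
    ⟨(mem_centralizer_singleton_iff.1 g.2).symm, congrArg Subtype.val (hg ⟨a, aT⟩ (show a ∈ K from sys_a s))⟩)
  rw [CentOK, fStar_eq_of_qs hq hc]
  refine ⟨hq, hi, ⟨s.K_le (sys_t s), show t ∈ K from sys_t s⟩, fun _ => ?_⟩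
  let p := QuotientGroup.mk' ((zpowers t).subgroupOf T)
  have hp := QuotientGroup.mk'_surjective ((zpowers t).subgroupOf T)
  have kp : ∀ x : T, p x = 1 ↔ (x : G) = 1 ∨ (x : G) = t := fun x => by
    rw [QuotientGroup.mk'_apply, QuotientGroup.eq_one_iff, mem_subgroupOf, zp2 (sq_two s.t2)]
  have := hn.map p hp
  obtain ⟨e⟩ := equiv_of_ker_eq (f := (p.subgroupMap (K.subgroupOf T)).comp (subgroupOfEquivOfLe s.K_le).symm.toMonoidHom)
    ((p.subgroupMap_surjective _).comp (subgroupOfEquivOfLe s.K_le).symm.surjective) h.surj (by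
      ext x
      exact (Subtype.ext_iff.trans (kp _)).trans (h.ker x).symm)
  have kl : p.ker ≤ K.subgroupOf T := fun x hx => by
    rcases (kp x).1 hx with e | e <;> rw [mem_subgroupOf, e]
    exacts [one_mem _, sys_t s]
  have inj := actOn_injective _ e (fun g hg => by
    obtain ⟨g, rfl⟩ := hp g
    refine mem_map_of_mem _ (hc (commutator_eq_bot_iff_le_centralizer.1 (H23.commutator_eq_bot_of_perfect
      (H := zpowers g) (H23.IsQuasisimple.commutator_self hq) ?_) (mem_zpowers g)))
    refine H23.commutator_eq_bot_of_le (A := center T) (B := ⊤) (commutator_le.2 fun x hx y hy => ?_) le_top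
      (commutator_eq_bot_iff_le_centralizer.2 (center_le_centralizer _))
    have c : Commute (p x) (p y) := by
      obtain ⟨k, rfl⟩ := hx
      exact map_zpow p g k ▸ Commute.zpow_left (hg _ (mem_map_of_mem _ hy)).symm k
    have := (kp ⁅x, y⁆).1 (by rw [map_commutatorElement, c.commutator_eq])
    refine mem_center_iff.2 fun u => Subtype.ext ?_
    rcases this with e | e <;> rw [Subgroup.coe_mul, Subgroup.coe_mul, e]
    · rw [mul_one, one_mul]
    · exact mem_centralizer_singleton_iff.1 u.2) H18.Fi22.center_eq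
  have := Finite.of_injective _ (DFunLike.coe_injective (F := MulAut Spor.Fi22))
  refine ⟨MulEquiv.ofBijective _ (inj.bijective_of_nat_card_le ?_)⟩
  rw [H96.F22.card_aut H18.Fi22.model, ← ((K.subgroupOf T).map p).card_mul_index, index_map_eq _ hp kl, hi,
    Nat.card_congr e.toEquiv, H18.Fi22.card_eq]

end Bar

end H48.FT
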